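import Mathlib
import Cfsg.Agent.H602.Blich.Lemma

/-!
# The spectral decomposition of an element of order dividing `p`

`x ^ p = 1`; `proj ρ x i` is the projection on the eigenspace of `ρ x` with the eigenvalue
`exp (2 π i / p)`.
-/

set_option autoImplicit false
set_option linter.unusedSectionVars false

namespace Cfsg.Agent.H602.Blich

open scoped ComplexConjugate ComplexOrder

/-! ### The invariant form -/

section Form

variable {G : Type*} [Group G] [Fintype G] {n : ℕ} (ρ : Representation ℂ G (Fin n → ℂ))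

/-- The averaged standard form. -/
noncomputable def form (u v : Fin n → ℂ) : ℂ := ∑ g : G, star (ρ g u) ⬝ᵥ ρ g v

theorem form_inv : InvForm ρ (form ρ) where
  add_right u v w := by
    simp only [form, map_add, dotProduct_add, Finset.sum_add_distrib]
  smul_right c u v := by
    simp only [form, map_smul, dotProduct_smul, Finset.mul_sum, smul_eq_mul]
  symm u v := by
    simp only [form, map_sum]
    refine Finset.sum_congr rfl fun g _ => ?_
    have := Matrix.star_dotProduct_star (ρ g v) (ρ g u)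
    have h2 : star (star (ρ g u) ⬝ᵥ ρ g v) = star (ρ g v) ⬝ᵥ ρ g u := by
      rw [← Matrix.star_dotProduct_star, star_star]
    exact h2.symm
  pos u hu := by
    simp only [form]
    have h0 : ∀ g : G, 0 ≤ star (ρ g u) ⬝ᵥ ρ g u := fun g => dotProduct_star_self_nonneg _
    have h1 : 0 < star (ρ 1 u) ⬝ᵥ ρ 1 u := by
      rw [Matrix.dotProduct_star_self_pos_iff, map_one]
      exact hu
    have h2 : 0 < ∑ g : G, star (ρ g u) ⬝ᵥ ρ g u :=
      Finset.sum_pos' (fun g _ => h0 g) ⟨1, Finset.mem_univ _, h1⟩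
    exact (Complex.lt_def.mp h2).1
  inv g u v := by
    simp only [form]
    simp_rw [← Module.End.mul_apply, ← map_mul]
    exact Fintype.sum_equiv (Equiv.mulRight g) _ _ fun h => rfl

end Form

/-! ### The projections -/

section Proj

variable {G V : Type*} [Group G] [AddCommGroup V] [Module ℂ V] (ρ : Representation ℂ G V)
  {p : ℕ} [NeZero p]

/-- The additive character `exp (2 π i a / p)`. -/
noncomputable abbrev ee (p : ℕ) [NeZero p] : AddChar (ZMod p) ℂ := ZMod.stdAddChar

theorem sum_ee (k : ZMod p) : ∑ j : ZMod p, ee p (k * j) = if k = 0 then (p : ℂ) else 0 := by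
  have h := AddChar.sum_mulShift (R := ZMod p) (R' := ℂ) k (ZMod.isPrimitive_stdAddChar p)
  rw [ZMod.card] at h
  have h1 : ∑ j : ZMod p, ee p (k * j) = ∑ j : ZMod p, ZMod.stdAddChar (j * k) := by
    refine Finset.sum_congr rfl fun j _ => ?_
    rw [mul_comm]
  rw [h1, h]
  split_ifs <;> simp

theorem conj_ee (a : ZMod p) : conj (ee p a) = ee p (-a) := by
  have h : 0 < ringChar (ZMod p) := by
    rw [ZMod.ringChar_zmod_n]
    exact Nat.pos_of_ne_zero (NeZero.ne p)
  rw [AddChar.starComp_apply h, AddChar.inv_apply]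

theorem ee_ne_zero (a : ZMod p) : ee p a ≠ 0 := by
  intro h
  have : ee p a * ee p (-a) = 1 := by
    rw [← AddChar.map_add_eq_mul, add_neg_cancel, AddChar.map_zero_eq_one]
  rw [h, zero_mul] at this
  exact zero_ne_one this

theorem ee_mul_conj (a : ZMod p) : ee p a * conj (ee p a) = 1 := by
  rw [conj_ee, ← AddChar.map_add_eq_mul, add_neg_cancel, AddChar.map_zero_eq_one]

theorem ee_inv (a : ZMod p) : (ee p a)⁻¹ = ee p (-a) := by
  rw [AddChar.map_neg_eq_inv]

theorem ee_pow (a : ZMod p) : (ee p a) ^ p = 1 := by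
  rw [← AddChar.map_nsmul_eq_pow]
  simp

/-- The power of `x` with exponent in `ZMod p`. -/
def zp (x : G) (s : ZMod p) : G := x ^ s.val

theorem zp_add {x : G} (hx : x ^ p = 1) (s t : ZMod p) : zp x (s + t) = zp x s * zp x t := by
  rw [zp, zp, zp, ZMod.val_add, ← pow_add]
  exact (pow_eq_pow_mod _ hx).symm

theorem zp_zero (x : G) : zp x (0 : ZMod p) = 1 := by
  rw [zp, ZMod.val_zero, pow_zero]

theorem zp_natCast {x : G} (hx : x ^ p = 1) (n : ℕ) : zp x (n : ZMod p) = x ^ n := by
  rw [zp, ZMod.val_natCast]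
  exact (pow_eq_pow_mod _ hx).symm

theorem zp_pow {x : G} (hx : x ^ p = 1) (s : ZMod p) : (zp x s) ^ p = 1 := by
  rw [zp, ← pow_mul, mul_comm, pow_mul, hx, one_pow]

/-- The projection on the eigenspace with eigenvalue `ee p i`. -/
noncomputable def proj (x : G) (i : ZMod p) : Module.End ℂ V :=
  (p : ℂ)⁻¹ • ∑ s : ZMod p, ee p (-(i * s)) • ρ (zp x s)

variable {ρ}

theorem p_ne_zero : (p : ℂ) ≠ 0 := Nat.cast_ne_zero.mpr (NeZero.ne p)

theorem sum_proj (x : G) : ∑ i : ZMod p, proj ρ x i = 1 := by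
  classical
  simp only [proj]
  rw [← Finset.smul_sum, Finset.sum_comm]
  have h1 : ∀ s : ZMod p, ∑ i : ZMod p, ee p (-(i * s)) • ρ (zp x s) =
      if s = 0 then (p : ℂ) • (1 : Module.End ℂ V) else 0 := by
    intro s
    rw [← Finset.sum_smul]
    have h2 : ∑ i : ZMod p, ee p (-(i * s)) = if -s = 0 then (p : ℂ) else 0 := by
      rw [← sum_ee]
      refine Finset.sum_congr rfl fun i _ => ?_
      congr 1; ring
    rw [h2]
    by_cases h : s = 0
    · subst h; rw [if_pos neg_zero, if_pos rfl, zp_zero, map_one]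
    · rw [if_neg (neg_ne_zero.mpr h), if_neg h, zero_smul]
  rw [Finset.sum_congr rfl fun s _ => h1 s, Finset.sum_ite_eq' Finset.univ (0 : ZMod p),
    if_pos (Finset.mem_univ _), smul_smul, inv_mul_cancel₀ p_ne_zero, one_smul]

theorem rho_mul_proj {x : G} (hx : x ^ p = 1) (t i : ZMod p) :
    ρ (zp x t) * proj ρ x i = ee p (i * t) • proj ρ x i := by
  have h1 : ρ (zp x t) * ∑ s : ZMod p, ee p (-(i * s)) • ρ (zp x s) =
      ee p (i * t) • ∑ s : ZMod p, ee p (-(i * s)) • ρ (zp x s) := by
    rw [Finset.mul_sum, Finset.smul_sum]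
    refine Fintype.sum_equiv (Equiv.addLeft t) _ _ fun s => ?_
    rw [mul_smul_comm, ← map_mul, Equiv.coe_addLeft, zp_add hx, smul_smul,
      ← AddChar.map_add_eq_mul]
    congr 2
    ring
  rw [proj, mul_smul_comm, h1, smul_comm]

theorem proj_mul_proj {x : G} (hx : x ^ p = 1) (i : ZMod p) :
    proj ρ x i * proj ρ x i = proj ρ x i := by
  have h1 : proj ρ x i * proj ρ x i =
      (p : ℂ)⁻¹ • ∑ s : ZMod p, ee p (-(i * s)) • (ρ (zp x s) * proj ρ x i) := by
    conv_lhs => rw [proj]
    rw [smul_mul_assoc, Finset.sum_mul]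
    simp_rw [smul_mul_assoc]
    rfl
  rw [h1]
  have h2 : ∀ s : ZMod p, ee p (-(i * s)) • (ρ (zp x s) * proj ρ x i) = proj ρ x i := by
    intro s
    rw [rho_mul_proj hx, smul_smul, ← AddChar.map_add_eq_mul]
    simp
  rw [Finset.sum_congr rfl fun s _ => h2 s, Finset.sum_const, Finset.card_univ, ZMod.card,
    ← Nat.cast_smul_eq_nsmul ℂ, smul_smul, inv_mul_cancel₀ p_ne_zero, one_smul]

theorem rho_proj_apply {x : G} (hx : x ^ p = 1) (t i : ZMod p) (u : V) :
    ρ (zp x t) (proj ρ x i u) = ee p (i * t) • proj ρ x i u := by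
  rw [← Module.End.mul_apply, rho_mul_proj hx]; rfl

theorem sum_proj_apply (x : G) (u : V) : ∑ i : ZMod p, proj ρ x i u = u := by
  have h := congrArg (fun f : Module.End ℂ V => f u) (sum_proj (ρ := ρ) (p := p) x)
  simpa [LinearMap.sum_apply] using h

theorem rho_zp {x : G} (hx : x ^ p = 1) (t : ZMod p) :
    ρ (zp x t) = ∑ i : ZMod p, ee p (i * t) • proj ρ x i := by
  rw [← mul_one (ρ (zp x t)), ← sum_proj (p := p) x, Finset.mul_sum]
  exact Finset.sum_congr rfl fun i _ => rho_mul_proj hx t i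

section Trace

variable [FiniteDimensional ℂ V]

/-- The multiplicity of the eigenvalue `ee p i` of `ρ x`. -/
noncomputable def mult (ρ : Representation ℂ G V) (x : G) (i : ZMod p) : ℕ :=
  Module.finrank ℂ (LinearMap.range (proj ρ x i))

theorem trace_proj {x : G} (hx : x ^ p = 1) (i : ZMod p) :
    LinearMap.trace ℂ V (proj ρ x i) = mult ρ x i := by
  have h : IsIdempotentElem (proj ρ x i) := proj_mul_proj hx i
  exact (LinearMap.IsIdempotentElem.isProj_range _ h).trace

theorem mult_eq_zero_iff {x : G} {i : ZMod p} : mult ρ x i = 0 ↔ proj ρ x i = 0 := by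
  rw [mult, Submodule.finrank_eq_zero, LinearMap.range_eq_bot]

theorem char_zp {x : G} (hx : x ^ p = 1) (t : ZMod p) :
    ρ.character (zp x t) = ∑ i : ZMod p, ee p (i * t) * mult ρ x i := by
  rw [Representation.character, rho_zp hx, map_sum]
  refine Finset.sum_congr rfl fun i _ => ?_
  rw [map_smul, trace_proj hx, smul_eq_mul]

theorem p_mul_mult {x : G} (hx : x ^ p = 1) (i : ZMod p) :
    (p : ℂ) * mult ρ x i = ∑ s : ZMod p, ee p (-(i * s)) * ρ.character (zp x s) := by
  rw [← trace_proj hx, proj, map_smul, map_sum, smul_eq_mul, ← mul_assoc,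
    mul_inv_cancel₀ p_ne_zero, one_mul]
  refine Finset.sum_congr rfl fun s _ => ?_
  rw [map_smul, smul_eq_mul]
  rfl

theorem sum_mult {x : G} (hx : x ^ p = 1) :
    ∑ i : ZMod p, (mult ρ x i : ℂ) = ρ.character 1 := by
  have h := char_zp (ρ := ρ) hx (0 : ZMod p)
  rw [zp_zero] at h
  rw [h]
  refine Finset.sum_congr rfl fun i _ => ?_
  rw [mul_zero, AddChar.map_zero_eq_one, one_mul]

end Trace

/-! ### Orthogonality and the angle condition -/

variable {B : V → V → ℂ}

theorem proj_orth (hB : InvForm ρ B) {x : G} (hx : x ^ p = 1) {i j : ZMod p} (hij : i ≠ j)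
    (u v : V) : B (proj ρ x i u) (proj ρ x j v) = 0 := by
  have h1 := hB.inv (zp x (1 : ZMod p)) (proj ρ x i u) (proj ρ x j v)
  rw [rho_proj_apply hx, rho_proj_apply hx, hB.smul_left, hB.smul_right, mul_one, mul_one,
    conj_ee, ← mul_assoc, ← AddChar.map_add_eq_mul] at h1
  by_contra h0
  have h2 : ee p (-i + j) = 1 := by
    have : (ee p (-i + j) - 1) * B (proj ρ x i u) (proj ρ x j v) = 0 := by
      rw [sub_mul, h1, one_mul, sub_self]
    rcases mul_eq_zero.mp this with h | h
    · exact sub_eq_zero.mp h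
    · exact absurd h h0
  have h3 : -i + j = 0 := by
    apply ZMod.injective_stdAddChar (N := p)
    rw [h2, AddChar.map_zero_eq_one]
  exact hij (by rw [neg_add_eq_zero] at h3; exact h3)

theorem form_proj (hB : InvForm ρ B) {x : G} (hx : x ^ p = 1) (i : ZMod p) (u : V) :
    B u (proj ρ x i u) = B (proj ρ x i u) (proj ρ x i u) := by
  classical
  conv_lhs => rw [← sum_proj_apply (ρ := ρ) (p := p) x u]
  rw [hB.sum_left]
  rw [Finset.sum_eq_single i]
  · rw [sum_proj_apply]
  · intro j _ hj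
    rw [sum_proj_apply]
    exact proj_orth hB hx hj _ _
  · intro h; exact absurd (Finset.mem_univ _) h

theorem form_self (hB : InvForm ρ B) {x : G} (hx : x ^ p = 1) (u : V) :
    B u u = ∑ i : ZMod p, B (proj ρ x i u) (proj ρ x i u) := by
  conv_lhs => rw [← sum_proj_apply (ρ := ρ) (p := p) x u]
  rw [hB.sum_right]
  refine Finset.sum_congr rfl fun i _ => ?_
  rw [sum_proj_apply, form_proj hB hx]

theorem form_im (hB : InvForm ρ B) (u : V) : (B u u).im = 0 := by
  have h := congrArg Complex.im (hB.symm u u)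
  rw [Complex.conj_im] at h
  linarith

theorem form_nonneg (hB : InvForm ρ B) (u : V) : 0 ≤ (B u u).re := by
  by_cases h : u = 0
  · rw [h, hB.zero_right]; simp
  · exact (hB.pos u h).le

/-- If all eigenvalues of `x ^ j` are at an angle `< π / 3` from `ee p (i₀ * j)`, the angle
condition holds. -/
theorem close_zp (hB : InvForm ρ B) {x : G} (hx : x ^ p = 1) (i₀ j : ZMod p)
    (h : ∀ i : ZMod p, proj ρ x i ≠ 0 → (1 : ℝ) / 2 < (ee p ((i - i₀) * j)).re) :
    Close ρ (ee p (i₀ * j)) B (zp x j) := by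
  intro u hu
  have h1 : T ρ (ee p (i₀ * j)) (zp x j) u =
      ∑ i : ZMod p, ee p ((i - i₀) * j) • proj ρ x i u := by
    rw [T, rho_zp hx, LinearMap.sum_apply, Finset.smul_sum]
    refine Finset.sum_congr rfl fun i _ => ?_
    rw [LinearMap.smul_apply, smul_smul, ee_inv, ← AddChar.map_add_eq_mul]
    congr 2
    ring
  have h2 : B u (T ρ (ee p (i₀ * j)) (zp x j) u) =
      ∑ i : ZMod p, ee p ((i - i₀) * j) * B (proj ρ x i u) (proj ρ x i u) := by
    rw [h1, hB.sum_right]
    refine Finset.sum_congr rfl fun i _ => ?_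
    rw [hB.smul_right, form_proj hB hx]
  have h3 : (B u (T ρ (ee p (i₀ * j)) (zp x j) u)).re =
      ∑ i : ZMod p, (ee p ((i - i₀) * j)).re * (B (proj ρ x i u) (proj ρ x i u)).re := by
    rw [h2, Complex.re_sum]
    refine Finset.sum_congr rfl fun i _ => ?_
    rw [Complex.mul_re, form_im hB, mul_zero, sub_zero]
  have h4 : (B u u).re = ∑ i : ZMod p, (B (proj ρ x i u) (proj ρ x i u)).re := by
    rw [form_self hB hx, Complex.re_sum]
  rw [h3, h4, Finset.mul_sum]
  obtain ⟨i, hi⟩ : ∃ i : ZMod p, proj ρ x i u ≠ 0 := by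
    by_contra hall
    push Not at hall
    apply hu
    rw [← sum_proj_apply (ρ := ρ) (p := p) x u, Finset.sum_eq_zero fun i _ => hall i]
  have hstep : ∀ k : ZMod p, (proj ρ x k u ≠ 0) →
      (B (proj ρ x k u) (proj ρ x k u)).re <
        2 * ((ee p ((k - i₀) * j)).re * (B (proj ρ x k u) (proj ρ x k u)).re) := by
    intro k hk
    have h5 : proj ρ x k ≠ 0 := by
      rintro h0; rw [h0] at hk; exact hk rfl
    have h6 := h k h5
    have h7 := hB.pos _ hk
    nlinarith
  refine Finset.sum_lt_sum (fun k _ => ?_) ⟨i, Finset.mem_univ _, hstep i hi⟩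
  by_cases hk : proj ρ x k u = 0
  · rw [hk, hB.zero_right]; simp
  · exact (hstep k hk).le

end Proj

end Cfsg.Agent.H602.Blich
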