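import Mathlib
import Cfsg.Agent.H602.Blich.Cyclic
import Cfsg.Agent.Characters.Core
import Cfsg.Agent.Characters.CentralCharacter
import Cfsg.Agent.Characters.GaloisBasic
import Cfsg.Agent.Blocks.Basic
import Cfsg.Agent.Blocks.Central
import Cfsg.Agent.Blocks.ExistsModular
import Cfsg.Agent.Blocks.Local
import Cfsg.Agent.Blocks.Twist
import Cfsg.Agent.S0907

/-!
# Simple groups of order `p ^ a * q ^ b * g₀`

* `pigeon`: the pigeonhole principle for the angles;
* `exists_char`: a nontrivial character in the principal `p`-block of degree prime to `q`;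
* `card_le_gcd`: the number of eigenvalues of an element `x` of order `p` in such a character.
-/

set_option autoImplicit false

namespace Cfsg.Agent.H602.Blich

open scoped ComplexConjugate
open Cfsg.Agent.Blocks.Local

/-- The real part of `exp (2 π i d / p)` exceeds `1 / 2` if `|6 d| < p`. -/
theorem re_ee_gt {p : ℕ} [NeZero p] (d : ℤ) (h : |6 * d| < p) :
    (1 : ℝ) / 2 < (ee p (d : ZMod p)).re := by
  have hp : (0 : ℝ) < p := Nat.cast_pos.mpr (NeZero.pos p)
  have h1 : ee p (d : ZMod p) = Complex.exp ((2 * Real.pi * d / p : ℝ) * Complex.I) := by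
    rw [ZMod.stdAddChar_coe]
    congr 1
    push_cast
    ring
  rw [h1, Complex.exp_ofReal_mul_I_re, ← Real.cos_abs, ← Real.cos_pi_div_three]
  have h2 : |(2 * Real.pi * d / p : ℝ)| < Real.pi / 3 := by
    have h3 : |(6 * d : ℝ)| < p := by
      have := (Int.cast_lt (R := ℝ)).mpr h
      simpa using this
    rw [abs_div, abs_mul, abs_mul, abs_of_pos hp, abs_of_pos Real.pi_pos]
    rw [abs_mul] at h3
    have h6 : |(6 : ℝ)| = 6 := abs_of_pos (by norm_num)
    have h7 : |(2 : ℝ)| = 2 := abs_of_pos (by norm_num)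
    rw [h6] at h3
    rw [h7, div_lt_div_iff₀ hp (by norm_num)]
    nlinarith [Real.pi_pos, h3]
  exact Real.cos_lt_cos_of_nonneg_of_le_pi (abs_nonneg _)
    (by linarith [Real.pi_pos]) h2

/-- The pigeonhole principle for the angles. -/
theorem pigeon {p : ℕ} [NeZero p] (I : Finset (ZMod p)) (i₀ : ZMod p) (hi₀ : i₀ ∈ I)
    (h : 6 ^ (I.card - 1) < p) :
    ∃ j : ZMod p, j ≠ 0 ∧ ∀ i ∈ I, (1 : ℝ) / 2 < (ee p ((i - i₀) * j)).re := by
  classical
  have hp : 0 < p := NeZero.pos p
  let f : ZMod p → (↥(I.erase i₀) → Fin 6) := fun j i =>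
    ⟨6 * (((i : ZMod p) - i₀) * j).val / p, by
      rw [Nat.div_lt_iff_lt_mul hp]
      exact Nat.mul_lt_mul_of_pos_left (ZMod.val_lt _) (by norm_num)⟩
  have hcard : Fintype.card (↥(I.erase i₀) → Fin 6) < Fintype.card (ZMod p) := by
    rw [Fintype.card_fun, Fintype.card_fin, Fintype.card_coe, Finset.card_erase_of_mem hi₀,
      ZMod.card]
    exact h
  obtain ⟨j₁, j₂, hne, hf⟩ := Fintype.exists_ne_map_eq_of_card_lt f hcard
  refine ⟨j₁ - j₂, sub_ne_zero.mpr hne, fun i hi => ?_⟩
  by_cases hii : i = i₀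
  · rw [hii, sub_self, zero_mul, AddChar.map_zero_eq_one]
    norm_num
  · have hi' : i ∈ I.erase i₀ := Finset.mem_erase.mpr ⟨hii, hi⟩
    have h1 := congrFun hf ⟨i, hi'⟩
    have h2 : 6 * ((i - i₀) * j₁).val / p = 6 * ((i - i₀) * j₂).val / p :=
      congrArg Fin.val h1
    set a := ((i - i₀) * j₁).val with ha
    set b := ((i - i₀) * j₂).val with hb
    have h3 : (i - i₀) * (j₁ - j₂) = (((a : ℤ) - (b : ℤ) : ℤ) : ZMod p) := by
      push_cast
      rw [ha, hb, ZMod.natCast_zmod_val, ZMod.natCast_zmod_val]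
      ring
    rw [h3]
    apply re_ee_gt
    have h4 := Nat.div_add_mod (6 * a) p
    have h5 := Nat.div_add_mod (6 * b) p
    have h6 := Nat.mod_lt (6 * a) hp
    have h7 := Nat.mod_lt (6 * b) hp
    rw [h2] at h4
    rw [abs_lt]
    constructor
    · have : (6 : ℤ) * a = p * (6 * b / p : ℕ) + (6 * a % p : ℕ) := by exact_mod_cast h4.symm
      have h8 : (6 : ℤ) * b = p * (6 * b / p : ℕ) + (6 * b % p : ℕ) := by exact_mod_cast h5.symm
      have h9 : ((6 * b % p : ℕ) : ℤ) < p := by exact_mod_cast h7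
      have h10 : (0 : ℤ) ≤ ((6 * a % p : ℕ) : ℤ) := by positivity
      linarith
    · have : (6 : ℤ) * a = p * (6 * b / p : ℕ) + (6 * a % p : ℕ) := by exact_mod_cast h4.symm
      have h8 : (6 : ℤ) * b = p * (6 * b / p : ℕ) + (6 * b % p : ℕ) := by exact_mod_cast h5.symm
      have h9 : ((6 * a % p : ℕ) : ℤ) < p := by exact_mod_cast h6
      have h10 : (0 : ℤ) ≤ ((6 * b % p : ℕ) : ℤ) := by positivity
      linarith

/-- There is a nontrivial character in the principal `p`-block whose degree is prime to `q`. -/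
theorem exists_char {G : Type*} [Group G] [Finite G] {p q : ℕ} [Fact p.Prime] (hq : q.Prime)
    {M : Ideal AlgInt} (hM : IsPModular p M) {y : G} (hy : p ∣ orderOf y) :
    ∃ χ : IrrCharacter G, χ ∈ principalBlock M G ∧ (χ : G → ℂ) ≠ (fun _ => 1) ∧
      ∀ n : ℕ, (χ : G → ℂ) 1 = n → ¬ q ∣ n := by
  classical
  have : M.IsPrime := isPrime_of_isPModular hM
  have : Finite (IrrCharacter G) := Characters.Core.finite_irr
  by_contra hcon
  push Not at hcon
  set one : IrrCharacter G := ⟨fun _ => 1, Blocks.Basic.isIrrCharacter_one⟩ with hone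
  have hB : IsPBlock M (principalBlock M G) := ⟨one, rfl⟩
  have h1 : one ∈ principalBlock M G := Blocks.Basic.mem_blockOf_self one
  have hsum := S0907.result p M hM _ hB 1 y
    (by rw [orderOf_one]; exact (Fact.out : p.Prime).one_lt.ne' ∘ Nat.dvd_one.mp) hy
  have hins : principalBlock M G = insert one (principalBlock M G \ {one}) := by
    rw [Set.insert_sdiff_singleton, Set.insert_eq_of_mem h1]
  rw [hins, finsum_mem_insert _ (by simp) (Set.toFinite _)] at hsum
  have hq0 : (q : ℂ) ≠ 0 := Nat.cast_ne_zero.mpr hq.ne_zero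
  have hfin : (principalBlock M G \ {one}).Finite := Set.toFinite _
  rw [finsum_mem_eq_finite_toFinset_sum _ hfin] at hsum
  -- each summand is divisible by `q`
  have hdiv : ∀ χ ∈ hfin.toFinset, ∃ z : ℂ, IsIntegral ℤ z ∧
      (χ : G → ℂ) 1 * conj ((χ : G → ℂ) y) = q * z := by
    intro χ hχ
    rw [Set.Finite.mem_toFinset] at hχ
    obtain ⟨n, hn, hqn⟩ := hcon χ hχ.1 (fun h => hχ.2 (Subtype.ext h))
    obtain ⟨m, rfl⟩ := hqn
    refine ⟨m * conj ((χ : G → ℂ) y), ?_, ?_⟩
    · refine IsIntegral.mul (isIntegral_algebraMap (R := ℤ) (A := ℂ) (x := (m : ℤ)) |> fun h => by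
        simpa using h) ?_
      exact (Blocks.Central.isIntegral_irr χ.2 y).map (starRingEnd ℂ).toIntAlgHom
    · rw [hn]; push_cast; ring
  choose! z hz1 hz2 using hdiv
  rw [Finset.sum_congr rfl hz2, ← Finset.mul_sum] at hsum
  have hint : IsIntegral ℤ (∑ χ ∈ hfin.toFinset, z χ) := IsIntegral.sum _ hz1
  have hinv : ((q : ℂ))⁻¹ = -(∑ χ ∈ hfin.toFinset, z χ) := by
    simp only [hone, map_one, mul_one] at hsum
    field_simp
    linear_combination hsum
  exact Blocks.ExistsModular.not_isIntegral_inv hq (hinv ▸ hint.neg)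

theorem isIntegral_natCast' (n : ℕ) : IsIntegral ℤ (n : ℂ) := by
  have := isIntegral_algebraMap (R := ℤ) (A := ℂ) (x := (n : ℤ))
  simpa using this

theorem isIntegral_intCast' (n : ℤ) : IsIntegral ℤ (n : ℂ) := by
  have := isIntegral_algebraMap (R := ℤ) (A := ℂ) (x := n)
  simpa using this

theorem isIntegral_ee {p : ℕ} [NeZero p] (a : ZMod p) : IsIntegral ℤ (ee p a) :=
  IsIntegral.of_pow (NeZero.pos p) (by rw [ee_pow]; exact isIntegral_one)

/-- The centralizer of a nontrivial power of an element of order `p`. -/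
theorem centralizer_zp {G : Type*} [Group G] {p : ℕ} [Fact p.Prime] {x : G} (hx : x ^ p = 1)
    {s : ZMod p} (hs : s ≠ 0) :
    Subgroup.centralizer ({zp x s} : Set G) = Subgroup.centralizer ({x} : Set G) := by
  have hx' : x = (zp x s) ^ (s⁻¹).val := by
    have h1 : zp x (s * s⁻¹) = x := by
      rw [mul_inv_cancel₀ hs, zp, ZMod.val_one, pow_one]
    conv_lhs => rw [← h1]
    rw [zp, zp, ZMod.val_mul, ← pow_mul]
    exact (pow_eq_pow_mod _ hx).symm
  ext g
  rw [Subgroup.mem_centralizer_singleton_iff, Subgroup.mem_centralizer_singleton_iff]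
  constructor
  · intro h
    have h1 : Commute g (zp x s) := h
    rw [hx']
    exact (h1.pow_right _)
  · intro h
    have h1 : Commute g x := h
    exact h1.pow_right _

open Classical in
/-- The number of eigenvalues of `ρ x`, for `ρ` in the principal block. -/
theorem card_le_gcd {G : Type*} [Group G] [Finite G] {p : ℕ} [Fact p.Prime]
    {M : Ideal AlgInt} (hM : IsPModular p M) {x : G} (hx : x ^ p = 1)
    {n : ℕ} (ρ : Representation ℂ G (Fin n → ℂ)) (hirr : ρ.IsIrreducible)
    (hB : SameBlock M (fun _ => (1 : ℂ)) ρ.character)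
    {k : ℕ} (hk : (Subgroup.centralizer ({x} : Set G)).index = k) (hpk : ¬ p ∣ k)
    (hge : Nat.gcd k n < p) :
    (Finset.univ.filter fun i : ZMod p => proj ρ x i ≠ 0).card ≤ Nat.gcd k n := by
  classical
  have hp : p.Prime := Fact.out
  have : Fact (1 < p) := ⟨hp.one_lt⟩
  have : M.IsPrime := isPrime_of_isPModular hM
  have : ρ.IsIrreducible := hirr
  have hn1 : ρ.character 1 = n := by rw [Representation.char_one]; simp
  have hn0 : 0 < n := by
    have := Characters.CentralCharacter.finrank_pos_of_irreducible ρ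
    simpa using this
  have hk0 : 0 < k := Nat.pos_of_ne_zero fun h => hpk (h ▸ dvd_zero p)
  obtain ⟨k', hk'⟩ : Nat.gcd k n ∣ k := Nat.gcd_dvd_left k n
  obtain ⟨f, hf⟩ : Nat.gcd k n ∣ n := Nat.gcd_dvd_right k n
  set e := Nat.gcd k n with he
  have he0 : 0 < e := Nat.gcd_pos_of_pos_left _ hk0
  have hf0 : 0 < f := Nat.pos_of_ne_zero fun h => by rw [h, mul_zero] at hf; omega
  have hcop : Nat.Coprime k' f := by
    have h1 : k' = k / e := by rw [hk', Nat.mul_div_cancel_left _ he0]
    have h2 : f = n / e := by rw [hf, Nat.mul_div_cancel_left _ he0]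
    rw [h1, h2]
    exact Nat.coprime_div_gcd_div_gcd he0
  have hpk' : ¬ p ∣ k' := fun h => hpk (hk' ▸ h.mul_left e)
  have hfC : (f : ℂ) ≠ 0 := Nat.cast_ne_zero.mpr hf0.ne'
  have heC : (e : ℂ) ≠ 0 := Nat.cast_ne_zero.mpr he0.ne'
  have hnC : (n : ℂ) = e * f := by rw [hf]; push_cast; ring
  have hkC : (k : ℂ) = e * k' := by rw [hk']; push_cast; ring
  -- integrality of the quotients
  have hint : ∀ s : ZMod p, IsIntegral ℤ (ρ.character (zp x s) / f) := by
    intro s
    by_cases hs : s = 0
    · rw [hs, zp_zero, hn1, hnC, mul_div_assoc, div_self hfC, mul_one]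
      exact isIntegral_natCast' e
    · have h1 := Characters.CentralCharacter.isIntegral_index_mul_character_div ρ (zp x s)
      rw [centralizer_zp hx hs, hk] at h1
      have h2 : (k : ℂ) * ρ.character (zp x s) / (Module.finrank ℂ (Fin n → ℂ) : ℂ) =
          k' * (ρ.character (zp x s) / f) := by
        have : (Module.finrank ℂ (Fin n → ℂ) : ℂ) = n := by simp
        rw [this, hnC, hkC]
        field_simp
      rw [h2] at h1
      have h3 := Blocks.Central.isIntegral_character ρ (zp x s)
      obtain ⟨u, v, huv⟩ : ∃ u v : ℤ, u * k' + v * f = 1 := by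
        have := Nat.isCoprime_iff_coprime.mpr hcop
        obtain ⟨u, v, h⟩ := this
        exact ⟨u, v, h⟩
      have huvC : (u : ℂ) * k' + v * f = 1 := by exact_mod_cast congrArg (Int.cast : ℤ → ℂ) huv
      have h4 : ρ.character (zp x s) / f =
          u * (k' * (ρ.character (zp x s) / f)) + v * ρ.character (zp x s) := by
        have : ρ.character (zp x s) = f * (ρ.character (zp x s) / f) := by field_simp
        calc ρ.character (zp x s) / f
            = (u * k' + v * f) * (ρ.character (zp x s) / f) := by rw [huvC, one_mul]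
          _ = u * (k' * (ρ.character (zp x s) / f)) + v * (f * (ρ.character (zp x s) / f)) := by
              ring
          _ = _ := by rw [← this]
      rw [h4]
      exact ((isIntegral_intCast' u).mul h1).add ((isIntegral_intCast' v).mul h3)
  have hee : ∀ a : ZMod p, MemLocalIdeal M (ee p a - 1) := fun a =>
    Blocks.Twist.memLocalIdeal_sub_one_of_pow_eq_one hM (ee_pow a)
  -- the multiplicities are congruent modulo `f`
  have hmod : ∀ i : ZMod p, (f : ℤ) ∣ (mult ρ x i : ℤ) - mult ρ x (0 : ZMod p) := by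
    intro i
    set z : ℂ := ∑ s : ZMod p, (ee p (-(i * s)) - 1) * (ρ.character (zp x s) / f) with hz
    have hz1 : z = p * ((mult ρ x i : ℂ) - mult ρ x (0 : ZMod p)) / f := by
      have h1 := p_mul_mult (ρ := ρ) hx i
      have h2 := p_mul_mult (ρ := ρ) hx (0 : ZMod p)
      rw [mul_sub, h1, h2, ← Finset.sum_sub_distrib, Finset.sum_div, hz]
      refine Finset.sum_congr rfl fun s _ => ?_
      rw [zero_mul, neg_zero, AddChar.map_zero_eq_one]
      ring
    have hz2 : IsIntegral ℤ z :=
      IsIntegral.sum _ fun s _ => ((isIntegral_ee _).sub isIntegral_one).mul (hint s)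
    have hz3 : MemLocalIdeal M z :=
      memLocalIdeal_sum fun s _ => memLocalIdeal_mul_right (hee _)
        (memLocalRing_of_isIntegral (hint s))
    obtain ⟨N, hN⟩ := Characters.GaloisBasic.exists_int_of_isIntegral hz2
      ⟨(p * ((mult ρ x i : ℚ) - mult ρ x (0 : ZMod p)) / f), by rw [hz1]; push_cast; ring⟩
    rw [hN, memLocalIdeal_intCast_iff hM] at hz3
    obtain ⟨t, ht⟩ := hz3
    refine ⟨t, ?_⟩
    have h3 : ((mult ρ x i : ℂ) - mult ρ x (0 : ZMod p)) = f * t := by
      have hpC : (p : ℂ) ≠ 0 := Nat.cast_ne_zero.mpr hp.ne_zero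
      rw [hN, ht] at hz1
      push_cast at hz1
      field_simp at hz1
      linear_combination -hz1
    exact_mod_cast h3
  set r := mult ρ x (0 : ZMod p) % f with hr
  have hmr : ∀ i : ZMod p, mult ρ x i = f * (mult ρ x i / f) + r := by
    intro i
    have h1 : mult ρ x i % f = r := by
      have h2 := hmod i
      rw [hr]
      have h3 : (mult ρ x (0 : ZMod p)) ≡ mult ρ x i [MOD f] :=
        (Nat.modEq_iff_dvd).mpr h2
      exact h3.symm
    conv_lhs => rw [← Nat.div_add_mod (mult ρ x i) f, h1]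
  set T := ∑ i : ZMod p, mult ρ x i / f with hT
  have hsum : f * T + p * r = f * e := by
    have h1 : (∑ i : ZMod p, mult ρ x i) = n := by
      have := sum_mult (ρ := ρ) hx
      rw [hn1] at this
      exact_mod_cast this
    rw [Finset.sum_congr rfl fun i _ => hmr i, Finset.sum_add_distrib, ← Finset.mul_sum,
      Finset.sum_const, Finset.card_univ, ZMod.card, smul_eq_mul, ← hT] at h1
    rw [h1, hf, mul_comm]
  -- the value at `x`
  have hx1 : zp x (1 : ZMod p) = x := by rw [zp, ZMod.val_one, pow_one]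
  have hsum0 : ∑ i : ZMod p, ee p i = 0 := by
    have := sum_ee (p := p) 1
    rw [if_neg one_ne_zero] at this
    simpa using this
  have hval : ρ.character x / f = ∑ i : ZMod p, ee p i * ((mult ρ x i / f : ℕ) : ℂ) := by
    have h1 := char_zp (ρ := ρ) hx (1 : ZMod p)
    rw [hx1] at h1
    have h2 : ∀ i : ZMod p, ee p (i * 1) * (mult ρ x i : ℂ) =
        f * (ee p i * ((mult ρ x i / f : ℕ) : ℂ)) + r * ee p i := by
      intro i
      have h3 : (mult ρ x i : ℂ) = f * ((mult ρ x i / f : ℕ) : ℂ) + r := by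
        exact_mod_cast congrArg (Nat.cast : ℕ → ℂ) (hmr i)
      rw [mul_one, h3]
      ring
    rw [h1, Finset.sum_congr rfl fun i _ => h2 i, Finset.sum_add_distrib, ← Finset.mul_sum,
      ← Finset.mul_sum, hsum0, mul_zero, add_zero, mul_comm, mul_div_assoc, div_self hfC, mul_one]
  have hcongT : MemLocalIdeal M (ρ.character x / f - T) := by
    have h1 : ρ.character x / f - T =
        ∑ i : ZMod p, (ee p i - 1) * ((mult ρ x i / f : ℕ) : ℂ) := by
      rw [hval, hT, Nat.cast_sum, ← Finset.sum_sub_distrib]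
      refine Finset.sum_congr rfl fun i _ => ?_
      ring
    rw [h1]
    exact memLocalIdeal_sum fun i _ => memLocalIdeal_mul_right (hee _) (memLocalRing_natCast _)
  have hcongE : MemLocalIdeal M ((e : ℂ) - ρ.character x / f) := by
    have h1 := hB x
    rw [Blocks.Basic.centralChar_def, Blocks.Basic.centralChar_def, hk, hn1] at h1
    have h2 : (k : ℂ) * 1 / 1 - k * ρ.character x / n = k' * ((e : ℂ) - ρ.character x / f) := by
      rw [hkC, hnC]
      field_simp
    rw [h2] at h1
    have hr1 : MemLocalRing M ((e : ℂ) - ρ.character x / f) := by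
      have h3 := hint 1
      rw [hx1] at h3
      exact memLocalRing_sub (memLocalRing_natCast _) (memLocalRing_of_isIntegral h3)
    rcases memLocalIdeal_or_of_mul (memLocalRing_natCast _) hr1 h1 with h | h
    · exact absurd ((memLocalIdeal_natCast_iff hM k').mp h) hpk'
    · exact h
  have hcong : (p : ℤ) ∣ (e : ℤ) - T := by
    rw [← memLocalIdeal_intCast_iff hM]
    have := memLocalIdeal_add hcongE hcongT
    have h2 : (((e : ℤ) - (T : ℤ) : ℤ) : ℂ) =
        (e : ℂ) - ρ.character x / f + (ρ.character x / f - T) := by push_cast; ring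
    rw [h2]
    exact this
  have hTe : T ≤ e := by
    have : f * T ≤ f * e := by omega
    exact Nat.le_of_mul_le_mul_left this hf0
  have heT : T = e := by
    obtain ⟨c, hc⟩ := hcong
    have h1 : ((e - T : ℕ) : ℤ) = p * c := by rw [Nat.cast_sub hTe]; exact hc
    have h2 : (p : ℤ) ∣ ((e - T : ℕ) : ℤ) := ⟨c, h1⟩
    have h3 : p ∣ e - T := Int.natCast_dvd_natCast.mp h2
    have h4 : e - T < p := lt_of_le_of_lt (Nat.sub_le _ _) hge
    have h5 := Nat.eq_zero_of_dvd_of_lt h3 h4
    omega
  have hr0 : r = 0 := by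
    rw [heT] at hsum
    have : p * r = 0 := by omega
    rcases Nat.mul_eq_zero.mp this with h | h
    · exact absurd h hp.ne_zero
    · exact h
  -- conclusion
  calc (Finset.univ.filter fun i : ZMod p => proj ρ x i ≠ 0).card
      = ∑ i ∈ Finset.univ.filter (fun i : ZMod p => proj ρ x i ≠ 0), 1 := by
        rw [Finset.card_eq_sum_ones]
    _ ≤ ∑ i ∈ Finset.univ.filter (fun i : ZMod p => proj ρ x i ≠ 0), mult ρ x i / f := by
        refine Finset.sum_le_sum fun i hi => ?_
        rw [Finset.mem_filter] at hi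
        have h1 : mult ρ x i ≠ 0 := fun h => hi.2 (mult_eq_zero_iff.mp h)
        have h2 := hmr i
        rw [hr0, add_zero] at h2
        by_contra h3
        have h4 : mult ρ x i / f = 0 := Nat.lt_one_iff.mp (not_le.mp h3)
        rw [h4, mul_zero] at h2
        exact h1 h2
    _ ≤ T := by
        rw [hT]
        exact Finset.sum_le_sum_of_subset (Finset.filter_subset _ _)
    _ = e := heT

end Cfsg.Agent.H602.Blich
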